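import Cfsg.Agent.Lib.T2.SL
import Cfsg.Agent.Lib.T2R.L2

/-! The doubly transitive actions of `PSL_k(q)`. -/

set_option autoImplicit false

namespace Cfsg.Agent.T2

open Matrix

theorem psl {G Ω : Type*} [Group G] [MulAction G Ω] [FaithfulSMul G Ω] [Finite Ω] [Nontrivial Ω] {F : Type} [Field F]
    [Fintype F] {k : ℕ} (hk : 2 ≤ k) (hq : k = 2 → 4 ≤ Fintype.card F)
    (e : G ≃* ProjectiveSpecialLinearGroup (Fin k) F) (h : Two G Ω) : T2R.Concl G (Nat.card Ω) := by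
  rcases hk.eq_or_lt with rfl | hk
  · exact T2R.psl2 (hq rfl) e h
  have := Fintype.ofFinite Ω
  let _ : MulAction (SpecialLinearGroup (Fin k) F) Ω :=
    MulAction.compHom Ω (e.symm.toMonoidHom.comp (QuotientGroup.mk' _))
  have h' : Two (SpecialLinearGroup (Fin k) F) Ω := h.comp fun g => by
    obtain ⟨x, hx⟩ := QuotientGroup.mk_surjective (e g)
    exact ⟨x, fun a => show e.symm x • a = g • a by rw [hx, e.symm_apply_apply]⟩
  rw [Nat.card_eq_fintype_card]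
  rcases sl hk h' with h1 | ⟨h1, rfl | rfl, h2⟩
  · exact .inl ⟨F, _, _, k, hk, ⟨e⟩, h1⟩
  · have : Fact (Nat.Prime 7) := ⟨by norm_num⟩
    obtain ⟨e'⟩ := T2R.iso27 (ZMod.card 7)
    exact .inr (.inl ⟨ZMod 7, inferInstance, inferInstance, by simp, ⟨(e.trans (Forms.centerQuotEquiv (Lin.slEquiv
      (FiniteField.ringEquivOfCardEq (h1.trans (ZMod.card 2).symm))))).trans e'.symm⟩, by simp [h2]⟩)
  · exact .inr (.inr (.inr (.inr (.inr (.inr (.inr (.inl ⟨F, _, _, h1, ⟨e⟩, h2⟩)))))))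

end Cfsg.Agent.T2
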